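import Mathlib

set_option autoImplicit false

/-!
# The base inequality: sums of `p`-th roots of unity

If `c_j = ∑ i, ξ i ^ j` with `ξ i ^ p = 1` and some `c_j ≠ 0`, `1 ≤ j ≤ p - 1`, then
`∑_{j=1}^{p-1} ‖c_j‖² ≥ p - 1`.
-/

namespace Cfsg.Agent.Lib.KGV.Base

open scoped ComplexConjugate

/-- The integer inequality. -/
theorem int_ineq (p : ℕ) (hp : 2 ≤ p) (a : ℕ → ℤ) {l₀ l₁ : ℕ} (h0 : l₀ < p) (h1 : l₁ < p)
    (hne : a l₀ ≠ a l₁) :
    (p : ℤ) - 1 ≤ p * ∑ l ∈ Finset.range p, a l ^ 2 - (∑ l ∈ Finset.range p, a l) ^ 2 := by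
  set t := a l₀ with ht
  let d : ℕ → ℤ := fun l => a l - t
  have hS : ∑ l ∈ Finset.range p, a l = ∑ l ∈ Finset.range p, d l + p * t := by
    simp [d, Finset.sum_sub_distrib]
  have hA : ∑ l ∈ Finset.range p, a l ^ 2 =
      ∑ l ∈ Finset.range p, d l ^ 2 + 2 * t * ∑ l ∈ Finset.range p, d l + p * t ^ 2 := by
    have : ∀ l, a l ^ 2 = d l ^ 2 + 2 * t * d l + t ^ 2 := fun l => by simp only [d]; ring
    simp_rw [this]
    rw [Finset.sum_add_distrib, Finset.sum_add_distrib, ← Finset.mul_sum]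
    simp
  set A := ∑ l ∈ Finset.range p, d l ^ 2 with hAdef
  set S := ∑ l ∈ Finset.range p, d l with hSdef
  have hd0 : d l₀ = 0 := by simp [d, ht]
  have hd1 : d l₁ ≠ 0 := by
    simp only [d, ht]
    intro h
    exact hne (by linarith)
  have hA1 : 1 ≤ A := by
    have h2 : d l₁ ^ 2 ≤ A :=
      Finset.single_le_sum (f := fun l => d l ^ 2) (fun _ _ => sq_nonneg _) (Finset.mem_range.mpr h1)
    have h3 : 1 ≤ d l₁ ^ 2 := by
      have := sq_pos_of_ne_zero hd1 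
      omega
    omega
  have hN : (p : ℤ) * (A + 2 * t * S + p * t ^ 2) - (S + p * t) ^ 2 = p * A - S ^ 2 := by ring
  rw [hS, hA, hN]
  have hp' : (2 : ℤ) ≤ p := by exact_mod_cast hp
  by_cases hc : (p : ℤ) - 1 ≤ A
  · -- Cauchy on `range p` minus `l₀`
    have hC : S ^ 2 ≤ ((p : ℤ) - 1) * A := by
      have hS' : S = ∑ l ∈ (Finset.range p).erase l₀, d l := by
        rw [hSdef, ← Finset.add_sum_erase _ _ (Finset.mem_range.mpr h0), hd0, zero_add]
      have hA' : A = ∑ l ∈ (Finset.range p).erase l₀, d l ^ 2 := by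
        rw [hAdef, ← Finset.add_sum_erase _ _ (Finset.mem_range.mpr h0), hd0]
        simp
      rw [hS', hA']
      have h3 := sq_sum_le_card_mul_sum_sq (s := (Finset.range p).erase l₀) (f := d)
      have h4 : (((Finset.range p).erase l₀).card : ℤ) = (p : ℤ) - 1 := by
        rw [Finset.card_erase_of_mem (Finset.mem_range.mpr h0), Finset.card_range]
        push_cast [Nat.one_le_of_lt h0]
        omega
      rwa [h4] at h3
    nlinarith
  · push Not at hc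
    have hSabs : |S| ≤ A := by
      calc |S| ≤ ∑ l ∈ Finset.range p, |d l| := Finset.abs_sum_le_sum_abs _ _
        _ ≤ A := by
          refine Finset.sum_le_sum fun l _ => ?_
          rw [← sq_abs (d l)]
          have h5 : |d l| ≤ |d l| ^ 2 := by
            rcases eq_or_ne (d l) 0 with h | h
            · simp [h]
            · have : 1 ≤ |d l| := Int.one_le_abs h
              nlinarith
          exact h5
    have hS2 : S ^ 2 ≤ A ^ 2 := by
      rw [← sq_abs S]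
      exact pow_le_pow_left₀ (abs_nonneg _) hSabs 2
    nlinarith [mul_nonneg (sub_nonneg.mpr hA1) (sub_nonneg.mpr hc.le)]

section

variable (p : ℕ) [Fact p.Prime]

lemma geom_zero {y : ℂ} (hy : y ^ p = 1) (hy1 : y ≠ 1) : ∑ j ∈ Finset.range p, y ^ j = 0 := by
  rw [geom_sum_eq hy1, hy]
  simp

/-- The discrete Fourier transform identity. -/
theorem dft_identity {ζ : ℂ} (hζ : IsPrimitiveRoot ζ p) (a : ℕ → ℝ) :
    ∑ j ∈ Finset.range p, ‖∑ l ∈ Finset.range p, (a l : ℂ) * ζ ^ (l * j)‖ ^ 2 =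
      p * ∑ l ∈ Finset.range p, a l ^ 2 := by
  have hp : 0 < p := (Fact.out : p.Prime).pos
  have hnorm : ‖ζ‖ = 1 := hζ.norm'_eq_one hp.ne'
  have hconj : conj ζ = ζ⁻¹ := by
    have h : ζ * conj ζ = 1 := by
      rw [Complex.mul_conj, Complex.normSq_eq_norm_sq, hnorm]; simp
    exact eq_inv_of_mul_eq_one_right h
  have hζ0 : ζ ≠ 0 := hζ.ne_zero hp.ne'
  apply Complex.ofReal_injective
  push_cast
  have h1 : ∀ z : ℂ, ((‖z‖ : ℂ)) ^ 2 = z * conj z := fun z => by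
    rw [Complex.mul_conj, Complex.normSq_eq_norm_sq]; push_cast; rfl
  simp_rw [h1, map_sum, map_mul, map_pow, Complex.conj_ofReal, hconj, Finset.sum_mul_sum]
  rw [Finset.sum_comm]
  have h2 : ∀ l ∈ Finset.range p, ∑ j ∈ Finset.range p, ∑ l' ∈ Finset.range p,
      (a l : ℂ) * ζ ^ (l * j) * ((a l' : ℂ) * ζ⁻¹ ^ (l' * j)) = (p : ℂ) * (a l : ℂ) ^ 2 := by
    intro l hl
    rw [Finset.sum_comm]
    rw [Finset.sum_eq_single l]
    · have : ∀ j ∈ Finset.range p, (a l : ℂ) * ζ ^ (l * j) * ((a l : ℂ) * ζ⁻¹ ^ (l * j)) =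
          (a l : ℂ) ^ 2 := by
        intro j _
        rw [inv_pow]
        field_simp
      rw [Finset.sum_congr rfl this]
      simp
    · intro l' hl' hne
      set y : ℂ := ζ ^ l * ζ⁻¹ ^ l' with hy
      have hy1 : y ≠ 1 := by
        intro h
        have h3 : ζ ^ l = ζ ^ l' := by
          rw [hy, inv_pow] at h
          field_simp at h
          exact h
        exact hne (hζ.pow_inj (Finset.mem_range.mp hl') (Finset.mem_range.mp hl) h3.symm)
      have hyp : y ^ p = 1 := by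
        have e1 : (ζ ^ l) ^ p = 1 := by rw [← pow_mul, mul_comm, pow_mul, hζ.pow_eq_one, one_pow]
        have e2 : (ζ⁻¹ ^ l') ^ p = 1 := by
          rw [← pow_mul, mul_comm, pow_mul, inv_pow, hζ.pow_eq_one, inv_one, one_pow]
        rw [hy, mul_pow, e1, e2, one_mul]
      have h4 : ∀ j ∈ Finset.range p, (a l : ℂ) * ζ ^ (l * j) * ((a l' : ℂ) * ζ⁻¹ ^ (l' * j)) =
          (a l : ℂ) * (a l' : ℂ) * y ^ j := by
        intro j _
        rw [hy, mul_pow, ← pow_mul, ← pow_mul]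
        ring
      rw [Finset.sum_congr rfl h4, ← Finset.mul_sum, geom_zero p hyp hy1, mul_zero]
    · intro h
      exact absurd hl h
  rw [Finset.sum_congr rfl h2, Finset.mul_sum]

/-- The base inequality. -/
theorem base {I : Type*} (ξ : I → ℂ) (hξ : ∀ i, ξ i ^ p = 1) (C : Finset I)
    (h : ∃ j : Fin (p - 1), ∑ i ∈ C, ξ i ^ ((j : ℕ) + 1) ≠ 0) :
    ((p : ℝ) - 1) ≤ ∑ j : Fin (p - 1), ‖∑ i ∈ C, ξ i ^ ((j : ℕ) + 1)‖ ^ 2 := by
  classical
  have hp := (Fact.out : p.Prime)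
  have hp0 : p ≠ 0 := hp.ne_zero
  have hζ := Complex.isPrimitiveRoot_exp p hp0
  set ζ := Complex.exp (2 * Real.pi * Complex.I / p) with hζdef
  have hl : ∀ i, ∃ l, l < p ∧ ζ ^ l = ξ i := fun i => hζ.eq_pow_of_pow_eq_one (hξ i)
  choose l hl1 hl2 using hl
  let a : ℕ → ℤ := fun m => ((C.filter fun i => l i = m).card : ℤ)
  have hc : ∀ j : ℕ, ∑ i ∈ C, ξ i ^ j = ∑ m ∈ Finset.range p, ((a m : ℝ) : ℂ) * ζ ^ (m * j) := by
    intro j
    rw [← Finset.sum_fiberwise_of_maps_to (s := C) (t := Finset.range p) (g := l)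
      (fun i _ => Finset.mem_range.mpr (hl1 i))]
    refine Finset.sum_congr rfl fun m _ => ?_
    have : ∀ i ∈ C.filter (fun i => l i = m), ξ i ^ j = ζ ^ (m * j) := by
      intro i hi
      rw [← hl2 i, (Finset.mem_filter.mp hi).2, pow_mul]
    rw [Finset.sum_congr rfl this, Finset.sum_const, nsmul_eq_mul]
    simp [a]
  have hsumJ : ∑ j : Fin (p - 1), ‖∑ i ∈ C, ξ i ^ ((j : ℕ) + 1)‖ ^ 2 =
      (p : ℝ) * ∑ m ∈ Finset.range p, (a m : ℝ) ^ 2 - (∑ m ∈ Finset.range p, (a m : ℝ)) ^ 2 := by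
    have hd := dft_identity p hζ (fun m => (a m : ℝ))
    obtain ⟨q, hq⟩ : ∃ q, p = q + 1 := ⟨p - 1, by omega⟩
    have hq' : p - 1 = q := by omega
    rw [hq'] 
    rw [Fin.sum_univ_eq_sum_range (fun j => ‖∑ i ∈ C, ξ i ^ (j + 1)‖ ^ 2) q]
    have hd2 : ∑ j ∈ Finset.range p, ‖∑ m ∈ Finset.range p, ((a m : ℝ) : ℂ) * ζ ^ (m * j)‖ ^ 2 =
        ∑ j ∈ Finset.range q, ‖∑ i ∈ C, ξ i ^ (j + 1)‖ ^ 2 +
          ‖∑ m ∈ Finset.range p, ((a m : ℝ) : ℂ) * ζ ^ (m * 0)‖ ^ 2 := by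
      rw [hq, Finset.sum_range_succ', ← hq]
      congr 1
      refine Finset.sum_congr rfl fun j _ => ?_
      rw [hc (j + 1)]
    rw [hd2] at hd
    have h0 : ‖∑ m ∈ Finset.range p, ((a m : ℝ) : ℂ) * ζ ^ (m * 0)‖ ^ 2 =
        (∑ m ∈ Finset.range p, (a m : ℝ)) ^ 2 := by
      simp only [mul_zero, pow_zero, mul_one]
      rw [← Complex.ofReal_sum, Complex.norm_real, Real.norm_eq_abs, sq_abs]
    rw [h0] at hd
    linarith
  rw [hsumJ]
  -- `a` is not constant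
  obtain ⟨j, hj⟩ := h
  have hnc : ∃ l₀ l₁, l₀ < p ∧ l₁ < p ∧ a l₀ ≠ a l₁ := by
    by_contra hcon
    push Not at hcon
    apply hj
    rw [hc]
    have hconst : ∀ m ∈ Finset.range p, ((a m : ℝ) : ℂ) * ζ ^ (m * ((j : ℕ) + 1)) =
        ((a 0 : ℝ) : ℂ) * (ζ ^ ((j : ℕ) + 1)) ^ m := by
      intro m hm
      rw [hcon m 0 (Finset.mem_range.mp hm) hp.pos, ← pow_mul, mul_comm m]
    rw [Finset.sum_congr rfl hconst, ← Finset.mul_sum]
    have hjlt : (j : ℕ) + 1 < p := by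
      have := j.2
      omega
    have hne1 : ζ ^ ((j : ℕ) + 1) ≠ 1 := hζ.pow_ne_one_of_pos_of_lt (by omega) hjlt
    have hpw : (ζ ^ ((j : ℕ) + 1)) ^ p = 1 := by
      rw [← pow_mul, mul_comm, pow_mul, hζ.pow_eq_one, one_pow]
    rw [geom_zero p hpw hne1, mul_zero]
  obtain ⟨l₀, l₁, h0, h1, hne⟩ := hnc
  have := int_ineq p hp.two_le a h0 h1 hne
  have h3 : ((p : ℤ) - 1 : ℝ) ≤ ((p * ∑ m ∈ Finset.range p, a m ^ 2 - (∑ m ∈ Finset.range p, a m) ^ 2 : ℤ) : ℝ) := by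
    exact_mod_cast this
  push_cast at h3
  exact_mod_cast h3

end

end Cfsg.Agent.Lib.KGV.Base
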