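import Cfsg.Agent.Lib.KGV.Decomp
import Cfsg.Agent.Lib.KGV.Base
import Cfsg.Agent.Lib.Char.Complete
import Cfsg.Agent.Lib.Char.Ito
import Cfsg.Agent.Lib.Char.Linear
import Cfsg.Agent.Lib.CharDeep.PElt

set_option autoImplicit false
set_option linter.style.haveILetI false

/-!
# The abelian stabilizer criterion for the `k(GV)` problem
-/

namespace Cfsg.Agent.Lib.KGV.AbStab

open Cfsg Module
open Cfsg.Agent.Lib.KGV.Lattice Cfsg.Agent.Lib.KGV.Decomp
open Cfsg.Agent.Lib.Char.Basic Cfsg.Agent.Lib.Char.Ortho Cfsg.Agent.Lib.Char.Complete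
open Cfsg.Agent.Lib.Char.Linear
open scoped ComplexConjugate

section Coprime

variable {X : Type*} [Group X]

/-- `t = [u, h]` fixed by `h`: then `t` has order dividing that of `h`. -/
lemma comm_pow_eq (u h t : X) (ht : t = u * (h * u⁻¹ * h⁻¹)) (hc : h * t = t * h) (k : ℕ) :
    t ^ k = u * (h ^ k * u⁻¹ * (h ^ k)⁻¹) := by
  induction k with
  | zero => simp
  | succ k ih =>
    have hck : (h ^ k)⁻¹ * t = t * (h ^ k)⁻¹ := by
      have h1 : Commute h t := hc
      exact ((h1.pow_left k).inv_left).eq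
    calc t ^ (k + 1) = t ^ k * t := pow_succ t k
      _ = u * (h ^ k * u⁻¹ * (h ^ k)⁻¹) * t := by rw [ih]
      _ = u * (h ^ k * u⁻¹) * ((h ^ k)⁻¹ * t) := by group
      _ = u * (h ^ k * u⁻¹) * (t * (h ^ k)⁻¹) := by rw [hck]
      _ = u * (h ^ k * u⁻¹) * (u * (h * u⁻¹ * h⁻¹) * (h ^ k)⁻¹) := by rw [ht]
      _ = u * (h ^ (k + 1) * u⁻¹ * (h ^ (k + 1))⁻¹) := by
        rw [pow_succ]
        group

lemma comm_eq_one [Finite X] {p : ℕ} (hp : p.Prime) (u h t : X) (ht : t = u * (h * u⁻¹ * h⁻¹))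
    (hc : h * t = t * h) (htp : t ^ p = 1) (hord : ¬ p ∣ orderOf h) : t = 1 := by
  have h1 := comm_pow_eq u h t ht hc (orderOf h)
  rw [pow_orderOf_eq_one] at h1
  simp only [one_mul, inv_one, mul_one, mul_inv_cancel] at h1
  have h2 : orderOf t ∣ p := orderOf_dvd_of_pow_eq_one htp
  have h3 : orderOf t ∣ orderOf h := orderOf_dvd_of_pow_eq_one h1
  have h4 : orderOf t ∣ Nat.gcd p (orderOf h) := Nat.dvd_gcd h2 h3
  have h5 : Nat.gcd p (orderOf h) = 1 := (Nat.Prime.coprime_iff_not_dvd hp).mpr hord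
  rw [h5, Nat.dvd_one, orderOf_eq_one_iff] at h4
  exact h4

end Coprime

section Main

variable {X : Type*} [Group X] [Finite X] (p : ℕ) [Fact p.Prime] (V : Subgroup X) [V.Normal]

/-- The centralizer of `w₀ h`. -/
theorem card_centralizer_le (hVexp : ∀ v ∈ V, v ^ p = 1) (hidx : ¬ p ∣ V.index)
    (hcomm : ∀ x ∈ V, ∀ y ∈ V, x * y = y * x)
    (G : Subgroup X) (hGV : Subgroup.IsComplement' V G) (v : X) (hv : v ∈ V) (j : ℕ) (hj : j + 1 < p)
    {h : X} (hG : h ∈ G) (hcv : h * v = v * h) :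
    Nat.card (Subgroup.centralizer ({v ^ (j + 1) * h} : Set X)) ≤
      Nat.card (V ⊓ Subgroup.centralizer ({h} : Set X) : Subgroup X) *
        Nat.card (G ⊓ Subgroup.centralizer ({v} : Set X) : Subgroup X) := by
  classical
  have hp : p.Prime := Fact.out
  set w₀ := v ^ (j + 1) with hw₀
  have hw₀V : w₀ ∈ V := pow_mem hv _
  have hcw : h * w₀ = w₀ * h := by
    have : Commute h v := hcv
    exact (this.pow_right (j + 1)).eq
  have hord : ¬ p ∣ orderOf h := by
    intro hd
    apply hidx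
    rw [hGV.symm.index_eq_card]
    have h1 : orderOf (⟨h, hG⟩ : G) = orderOf h := Subgroup.orderOf_mk h hG
    have h2 : orderOf (⟨h, hG⟩ : G) ∣ Nat.card G := orderOf_dvd_natCard _
    rw [h1] at h2
    exact hd.trans h2
  have hdec : ∀ y : Subgroup.centralizer ({w₀ * h} : Set X),
      ∃ q : (V ⊓ Subgroup.centralizer ({h} : Set X) : Subgroup X) ×
        (G ⊓ Subgroup.centralizer ({v} : Set X) : Subgroup X), (y : X) = (q.1 : X) * (q.2 : X) := by
    rintro ⟨y, hy⟩
    rw [Subgroup.mem_centralizer_singleton_iff] at hy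
    obtain ⟨⟨u, g⟩, hug⟩ := hGV.2 y
    have hug' : (u : X) * (g : X) = y := hug
    subst hug'
    obtain ⟨u, hu⟩ := u
    obtain ⟨g, hg⟩ := g
    simp only at hy ⊢
    set h' := g * h * g⁻¹ with hh'
    have hh'G : h' ∈ G := G.mul_mem (G.mul_mem hg hG) (G.inv_mem hg)
    set w := g * w₀ * g⁻¹ with hw
    have hwV : w ∈ V := Subgroup.Normal.conj_mem inferInstance w₀ hw₀V g
    have hu'V : h' * u⁻¹ * h'⁻¹ ∈ V := Subgroup.Normal.conj_mem inferInstance u⁻¹ (V.inv_mem hu) h'
    have ha1 : u * w * (h' * u⁻¹ * h'⁻¹) ∈ V := V.mul_mem (V.mul_mem hu hwV) hu'V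
    have heq : (u * w * (h' * u⁻¹ * h'⁻¹)) * h' = w₀ * h := by
      have h1 : (u * g) * (w₀ * h) * (u * g)⁻¹ = w₀ * h := by
        rw [hy, mul_assoc, mul_inv_cancel, mul_one]
      rw [← h1, hh', hw]
      group
    have huniq := hGV.1 (a₁ := (⟨_, ha1⟩, ⟨h', hh'G⟩)) (a₂ := (⟨w₀, hw₀V⟩, ⟨h, hG⟩)) heq
    have huniq' := Prod.ext_iff.mp huniq
    have e1 : u * w * (h' * u⁻¹ * h'⁻¹) = w₀ := congrArg Subtype.val huniq'.1
    have e2 : h' = h := congrArg Subtype.val huniq'.2
    rw [e2] at e1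
    have hgh : g * h = h * g := by
      have : g * h * g⁻¹ = h := e2
      rw [mul_inv_eq_iff_eq_mul] at this
      exact this
    set t := u * (h * u⁻¹ * h⁻¹) with ht
    have hhu : h * u⁻¹ * h⁻¹ ∈ V := Subgroup.Normal.conj_mem inferInstance u⁻¹ (V.inv_mem hu) h
    have htV : t ∈ V := V.mul_mem hu hhu
    have e3 : w * t = w₀ := by
      rw [← e1, ht, ← mul_assoc, hcomm w hwV u hu]
    have hhw : h * w = w * h := by
      rw [hw]
      calc h * (g * w₀ * g⁻¹) = (h * g) * w₀ * g⁻¹ := by group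
        _ = (g * h) * w₀ * g⁻¹ := by rw [hgh]
        _ = g * (h * w₀) * g⁻¹ := by group
        _ = g * (w₀ * h) * g⁻¹ := by rw [hcw]
        _ = g * w₀ * (h * g⁻¹) := by group
        _ = g * w₀ * (g⁻¹ * h) := by
          congr 1
          rw [eq_inv_mul_iff_mul_eq, ← mul_assoc, hgh, mul_assoc, mul_inv_cancel, mul_one]
        _ = g * w₀ * g⁻¹ * h := by group
    have hht : h * t = t * h := by
      have e4 : t = w⁻¹ * w₀ := by rw [← e3]; group
      rw [e4]
      have c1 : Commute h w := hhw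
      have c2 : Commute h w₀ := hcw
      exact (c1.inv_right.mul_right c2).eq
    have ht1 := comm_eq_one hp u h t ht hht (hVexp t htV) hord
    have e5 : w = w₀ := by rw [← e3, ht1, mul_one]
    have hu1 : u * h = h * u := by
      have : u * (h * u⁻¹ * h⁻¹) = 1 := ht1
      have h2 : u * h * u⁻¹ * h⁻¹ = 1 := by rw [← this]; group
      have h3 := mul_inv_eq_one.mp h2
      exact mul_inv_eq_iff_eq_mul.mp h3
    have hgw : g * w₀ = w₀ * g := by
      have : g * w₀ * g⁻¹ = w₀ := e5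
      exact mul_inv_eq_iff_eq_mul.mp this
    have hgv : g * v = v * g := by
      have hcop : (j + 1).Coprime (orderOf v) := by
        have hd : orderOf v ∣ p := orderOf_dvd_of_pow_eq_one (hVexp v hv)
        have h6 : (j + 1).Coprime p := by
          rw [Nat.coprime_comm]
          exact (Nat.Prime.coprime_iff_not_dvd hp).mpr (Nat.not_dvd_of_pos_of_lt (by omega) hj)
        exact h6.coprime_dvd_right hd
      obtain ⟨m, hm⟩ := exists_pow_eq_self_of_coprime hcop
      rw [← hm]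
      have c : Commute g w₀ := hgw
      exact (c.pow_right m).eq
    have m1 : u ∈ V ⊓ Subgroup.centralizer ({h} : Set X) :=
      Subgroup.mem_inf.mpr ⟨hu, Subgroup.mem_centralizer_singleton_iff.mpr hu1⟩
    have m2 : g ∈ G ⊓ Subgroup.centralizer ({v} : Set X) :=
      Subgroup.mem_inf.mpr ⟨hg, Subgroup.mem_centralizer_singleton_iff.mpr hgv⟩
    exact ⟨⟨⟨u, m1⟩, ⟨g, m2⟩⟩, rfl⟩
  choose F hF using hdec
  have hinj : Function.Injective F := by
    intro x y hxy
    apply Subtype.ext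
    rw [hF x, hF y, hxy]
  have := Nat.card_le_card_of_injective F hinj
  rwa [Nat.card_prod] at this

end Main

section Chars

universe u

variable {X : Type u} [Group X] [Finite X] {A : Type*} [CommGroup A] [Fintype A] (ι : A →* X)

/-- A character of a commutative group is a sum of linear characters. -/
theorem exists_linear_decomp {T : Type u} [Group T] [Finite T] (hcomm : ∀ a b : T, a * b = b * a)
    {χ : T → ℂ} (hχ : IsCharacter T χ) :
    ∃ (I : Type u) (_ : Fintype I) (lam : I → T →* ℂˣ), ∀ t, χ t = ∑ i, ((lam i t : ℂˣ) : ℂ) := by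
  classical
  have := finite_irrCharacter (G := T)
  let _ : Fintype (IrrCharacter T) := Fintype.ofFinite _
  obtain ⟨m, hm⟩ := exists_nat_combination hχ
  have hl : ∀ ψ : IrrCharacter T, ∃ lam : T →* ℂˣ, (ψ : T → ℂ) = fun g => (lam g : ℂ) := fun ψ =>
    exists_hom_of_deg_one (isCharacter_of_isIrrCharacter ψ.2) (isIrr_deg_one_of_comm hcomm ψ.2)
  choose l hl using hl
  refine ⟨Σ ψ : IrrCharacter T, Fin (m ψ), inferInstance, fun i => l i.1, fun t => ?_⟩
  rw [hm, Fintype.sum_sigma]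
  simp only [Finset.sum_apply, Pi.smul_apply, Finset.sum_const, Finset.card_univ, Fintype.card_fin]
  refine Finset.sum_congr rfl fun ψ _ => ?_
  rw [hl ψ]

/-- The inequality for one irreducible character. -/
theorem irr_ineq (p : ℕ) [Fact p.Prime] (v : X) (hvp : v ^ p = 1)
    (hιv : ∀ a, ι a * v = v * ι a) (χ : IrrCharacter X) (hχv : (χ : X → ℂ) v ≠ 0)
    (L : List (Subgroup A)) (hL : meet L = ⊥) :
    ((p : ℝ) - 1) * Fintype.card A * Fintype.card A ≤
      ∑ j : Fin (p - 1), ∑ a, W L a * ‖(χ : X → ℂ) (v ^ ((j : ℕ) + 1) * ι a)‖ ^ 2 := by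
  classical
  have hp : p.Prime := Fact.out
  let S : Set X := (ι.range : Set X) ∪ {v}
  have hS : ∀ x ∈ S, ∀ y ∈ S, x * y = y * x := by
    have hA : ∀ a b : A, ι a * ι b = ι b * ι a := fun a b => by
      rw [← map_mul, ← map_mul, mul_comm]
    rintro x (⟨a, rfl⟩ | rfl) y (⟨b, rfl⟩ | rfl)
    · exact hA a b
    · exact hιv a
    · exact (hιv b).symm
    · rfl
  let T : Subgroup X := Subgroup.closure S
  have hcomm : ∀ a b : T, a * b = b * a := by
    have := Subgroup.isMulCommutative_closure hS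
    exact fun a b => mul_comm' a b
  let vT : T := ⟨v, Subgroup.subset_closure (Or.inr rfl)⟩
  let iT : A →* T := ι.codRestrict T (fun a => Subgroup.subset_closure (Or.inl ⟨a, rfl⟩))
  obtain ⟨I, _, lam, hlam⟩ := exists_linear_decomp hcomm
    (isCharacter_restrict T (isCharacter_of_isIrrCharacter χ.2))
  let μ : I → A →* ℂˣ := fun i => (lam i).comp iT
  let ξ : I → ℂ := fun i => ((lam i vT : ℂˣ) : ℂ)
  let τ : I → Fin (p - 1) → ℂ := fun i j => ξ i ^ ((j : ℕ) + 1)
  have hξ : ∀ i, ξ i ^ p = 1 := by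
    intro i
    have h1 : vT ^ p = 1 := Subtype.ext (by simpa [vT] using hvp)
    change ((lam i vT : ℂˣ) : ℂ) ^ p = 1
    rw [← Units.val_pow_eq_pow_val, ← map_pow, h1, map_one, Units.val_one]
  have hfam : ∀ (j : Fin (p - 1)) (a : A),
      fam μ τ Finset.univ j a = (χ : X → ℂ) (v ^ ((j : ℕ) + 1) * ι a) := by
    intro j a
    have h1 := hlam (vT ^ ((j : ℕ) + 1) * iT a)
    have h2 : ((vT ^ ((j : ℕ) + 1) * iT a : T) : X) = v ^ ((j : ℕ) + 1) * ι a := by
      simp [vT, iT]
    simp only [h2] at h1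
    rw [h1]
    unfold fam
    refine Finset.sum_congr rfl fun i _ => ?_
    simp only [τ, ξ, μ, map_mul, map_pow, MonoidHom.comp_apply, Units.val_mul, Units.val_pow_eq_pow_val]
  have hbase : ∀ C : Finset I, (∃ j, ∑ i ∈ C, τ i j ≠ 0) →
      (Fintype.card (Fin (p - 1)) : ℝ) ≤ ∑ j, ‖∑ i ∈ C, τ i j‖ ^ 2 := by
    intro C hC
    have h1 := Cfsg.Agent.Lib.KGV.Base.base p ξ hξ C hC
    rw [Fintype.card_fin, Nat.cast_sub hp.one_lt.le]
    simpa using h1
  have hne : ∃ j a, fam μ τ Finset.univ j a ≠ 0 := by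
    have hp1 : 0 < p - 1 := by have := hp.one_lt; omega
    refine ⟨⟨0, hp1⟩, 1, ?_⟩
    rw [hfam]
    simpa using hχv
  have hmain := main μ τ hbase L Finset.univ (by
    intro i _ i' _ b hb
    rw [hL, Subgroup.mem_bot] at hb
    subst hb
    simp) hne
  simp only [hfam] at hmain
  rw [hL, Subgroup.index_bot, Fintype.card_fin, Nat.cast_sub hp.one_lt.le,
    Nat.card_eq_fintype_card] at hmain
  simpa using hmain

end Chars

section Final

universe u

variable {X : Type u} [Group X] [Finite X]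

/-- The second orthogonality relation in norm form. -/
theorem sum_norm_sq [Fintype X] [Fintype (IrrCharacter X)] (g : X) :
    ∑ χ : IrrCharacter X, ‖(χ : X → ℂ) g‖ ^ 2 = (Nat.card (Subgroup.centralizer ({g} : Set X)) : ℝ) := by
  have h1 := sum_irr_mul_conj (G := X) g g
  rw [if_pos (IsConj.refl _)] at h1
  have h2 : ((∑ χ : IrrCharacter X, ‖(χ : X → ℂ) g‖ ^ 2 : ℝ) : ℂ) =
      ((Nat.card (Subgroup.centralizer ({g} : Set X)) : ℝ) : ℂ) := by
    push_cast
    rw [← h1]
    refine Finset.sum_congr rfl fun χ _ => ?_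
    rw [Complex.mul_conj, Complex.normSq_eq_norm_sq]
    push_cast
    rfl
  exact_mod_cast h2

/-- The main theorem, with the stabilizer presented by an injective map from a commutative group. -/
theorem core (p : ℕ) [Fact p.Prime] (V : Subgroup X) [V.Normal]
    (hVexp : ∀ v ∈ V, v ^ p = 1) (hidx : ¬ p ∣ V.index)
    (hself : Subgroup.centralizer (V : Set X) = V) (G : Subgroup X)
    (hGV : Subgroup.IsComplement' V G) (v : X) (hv : v ∈ V)
    {A : Type*} [CommGroup A] [Fintype A] (ι : A →* X) (hinj : Function.Injective ι)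
    (hrange : ι.range = G ⊓ Subgroup.centralizer ({v} : Set X)) :
    Nat.card (ConjClasses X) ≤ Nat.card V := by
  classical
  have hp : p.Prime := Fact.out
  let _ : Fintype X := Fintype.ofFinite X
  have := finite_irrCharacter (G := X)
  let _ : Fintype (IrrCharacter X) := Fintype.ofFinite _
  have hcommV : ∀ x ∈ V, ∀ y ∈ V, x * y = y * x := by
    intro x hx y hy
    have h1 : x ∈ Subgroup.centralizer (V : Set X) := by rw [hself]; exact hx
    rw [Subgroup.mem_centralizer_iff] at h1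
    exact (h1 y hy).symm
  have hmem : ∀ a, ι a ∈ G ⊓ Subgroup.centralizer ({v} : Set X) := fun a => by
    rw [← hrange]; exact ⟨a, rfl⟩
  have hιG : ∀ a, ι a ∈ G := fun a => (Subgroup.mem_inf.mp (hmem a)).1
  have hιv : ∀ a, ι a * v = v * ι a := fun a =>
    Subgroup.mem_centralizer_singleton_iff.mp (Subgroup.mem_inf.mp (hmem a)).2
  have hcardA : Nat.card (G ⊓ Subgroup.centralizer ({v} : Set X) : Subgroup X) = Fintype.card A := by
    rw [← hrange, ← Nat.card_eq_fintype_card]
    exact Nat.card_congr (MonoidHom.ofInjective hinj).toEquiv.symm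
  have hVp : IsPGroup p V := fun g => ⟨1, by
    apply Subtype.ext
    simpa using hVexp g g.2⟩
  have hcop : (Nat.card ι.range).Coprime (Nat.card V) := by
    obtain ⟨n, hn⟩ := IsPGroup.iff_card.mp hVp
    rw [hn]
    apply Nat.Coprime.pow_right
    rw [Nat.coprime_comm, Nat.Prime.coprime_iff_not_dvd hp]
    intro hd
    apply hidx
    rw [hGV.symm.index_eq_card]
    refine hd.trans ?_
    rw [hrange]
    exact Subgroup.card_dvd_of_le inf_le_left
  have hinv : Inv ι V := by
    intro a u hu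
    exact Subgroup.Normal.conj_mem inferInstance u hu (ι a)
  obtain ⟨L, hLmeet, hLW⟩ := exists_list ι hcommV hVexp hcop _ V rfl le_rfl hinv
  have hL : meet L = ⊥ := by
    rw [hLmeet, eq_bot_iff]
    intro a ha
    have h1 : ι a ∈ Subgroup.centralizer (V : Set X) := by
      rw [Subgroup.mem_centralizer_iff]
      intro u hu
      exact ((mem_cA ι).mp ha u hu)
    rw [hself] at h1
    have h2 : ι a ∈ V ⊓ G := Subgroup.mem_inf.mpr ⟨h1, hιG a⟩
    rw [hGV.disjoint.eq_bot, Subgroup.mem_bot] at h2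
    rw [Subgroup.mem_bot]
    exact hinj (by simpa using h2)
  have hχv : ∀ χ : IrrCharacter X, (χ : X → ℂ) v ≠ 0 := by
    intro χ
    obtain ⟨m, ρ, hρ, hχ⟩ := χ.2
    rw [← hχ]
    haveI := hρ
    have hdvd := Cfsg.Agent.Lib.Char.Ito.finrank_dvd_index_of_abelian_normal ρ V hcommV
    exact Cfsg.Agent.Lib.CharDeep.PElt.character_ne_zero ρ hp 1 (by simpa using hVexp v hv)
      (fun hd => hidx (hd.trans hdvd))
  have hvp : v ^ p = 1 := hVexp v hv
  have h1 : ∀ χ : IrrCharacter X, ((p : ℝ) - 1) * Fintype.card A * Fintype.card A ≤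
      ∑ j : Fin (p - 1), ∑ a, W L a * ‖(χ : X → ℂ) (v ^ ((j : ℕ) + 1) * ι a)‖ ^ 2 :=
    fun χ => irr_ineq ι p v hvp hιv χ (hχv χ) L hL
  have h2 := Finset.sum_le_sum (s := Finset.univ) (fun χ _ => h1 χ)
  rw [Finset.sum_const, Finset.card_univ, nsmul_eq_mul, ← Nat.card_eq_fintype_card (α := IrrCharacter X),
    card_irr_eq_card_conjClasses] at h2
  have h3 : ∑ χ : IrrCharacter X, ∑ j : Fin (p - 1), ∑ a, W L a * ‖(χ : X → ℂ) (v ^ ((j : ℕ) + 1) * ι a)‖ ^ 2 ≤
      ((p : ℝ) - 1) * Fintype.card A * ((Nat.card V : ℝ) * Fintype.card A) := by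
    rw [Finset.sum_comm]
    have e1 : ∀ j : Fin (p - 1), ∑ χ : IrrCharacter X, ∑ a, W L a * ‖(χ : X → ℂ) (v ^ ((j : ℕ) + 1) * ι a)‖ ^ 2 ≤
        Fintype.card A * ((Nat.card V : ℝ) * Fintype.card A) := by
      intro j
      rw [Finset.sum_comm]
      have e2 : ∀ a : A, ∑ χ : IrrCharacter X, W L a * ‖(χ : X → ℂ) (v ^ ((j : ℕ) + 1) * ι a)‖ ^ 2 ≤
          (Nat.card V : ℝ) * Fintype.card A := by
        intro a
        rw [← Finset.mul_sum, sum_norm_sq]
        have hj : (j : ℕ) + 1 < p := by have := j.2; omega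
        have h4 := card_centralizer_le p V hVexp hidx hcommV G hGV v hv (j : ℕ) hj (hιG a) (hιv a)
        rw [hcardA] at h4
        have h5 : (Nat.card (Subgroup.centralizer ({v ^ ((j : ℕ) + 1) * ι a} : Set X)) : ℝ) ≤
            (Nat.card (cU ι V a) : ℝ) * Fintype.card A := by
          exact_mod_cast h4
        have h6 := hLW a
        have hWpos := W_pos L a
        calc W L a * (Nat.card (Subgroup.centralizer ({v ^ ((j : ℕ) + 1) * ι a} : Set X)) : ℝ)
            ≤ W L a * ((Nat.card (cU ι V a) : ℝ) * Fintype.card A) :=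
              mul_le_mul_of_nonneg_left h5 hWpos.le
          _ = (W L a * (Nat.card (cU ι V a) : ℝ)) * Fintype.card A := by ring
          _ ≤ (Nat.card V : ℝ) * Fintype.card A :=
              mul_le_mul_of_nonneg_right h6 (by positivity)
      calc ∑ a : A, ∑ χ : IrrCharacter X, W L a * ‖(χ : X → ℂ) (v ^ ((j : ℕ) + 1) * ι a)‖ ^ 2
          ≤ ∑ _a : A, (Nat.card V : ℝ) * Fintype.card A := Finset.sum_le_sum fun a _ => e2 a
        _ = _ := by
          rw [Finset.sum_const, Finset.card_univ, nsmul_eq_mul]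
    calc ∑ j : Fin (p - 1), ∑ χ : IrrCharacter X, ∑ a, W L a * ‖(χ : X → ℂ) (v ^ ((j : ℕ) + 1) * ι a)‖ ^ 2
        ≤ ∑ _j : Fin (p - 1), (Fintype.card A : ℝ) * ((Nat.card V : ℝ) * Fintype.card A) :=
          Finset.sum_le_sum fun j _ => e1 j
      _ = _ := by
        rw [Finset.sum_const, Finset.card_univ, nsmul_eq_mul, Fintype.card_fin,
          Nat.cast_sub hp.one_lt.le]
        simp [mul_assoc]
  have hA : (0 : ℝ) < Fintype.card A := by
    have : 0 < Fintype.card A := by
      have h7 : Nonempty A := ⟨1⟩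
      exact Fintype.card_pos
    exact_mod_cast this
  have hp1 : (0 : ℝ) < (p : ℝ) - 1 := by
    have : (1 : ℝ) < p := by exact_mod_cast hp.one_lt
    linarith
  have h4 := h2.trans h3
  have h5 : (Nat.card (ConjClasses X) : ℝ) * (((p : ℝ) - 1) * Fintype.card A * Fintype.card A) ≤
      (Nat.card V : ℝ) * (((p : ℝ) - 1) * Fintype.card A * Fintype.card A) := by
    calc _ ≤ _ := h4
      _ = _ := by ring
  have h6 := le_of_mul_le_mul_right h5 (by positivity)
  exact_mod_cast h6

/-- The abelian stabilizer criterion. -/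
theorem final (p : ℕ) [Fact p.Prime] (V : Subgroup X) [V.Normal]
    (hVexp : ∀ v ∈ V, v ^ p = 1) (hidx : ¬ p ∣ V.index)
    (hself : Subgroup.centralizer (V : Set X) = V) (G : Subgroup X)
    (hGV : Subgroup.IsComplement' V G) (v : X) (hv : v ∈ V)
    (hab : ∀ a ∈ G ⊓ Subgroup.centralizer ({v} : Set X),
      ∀ b ∈ G ⊓ Subgroup.centralizer ({v} : Set X), a * b = b * a) :
    Nat.card (ConjClasses X) ≤ Nat.card V := by
  let H := G ⊓ Subgroup.centralizer ({v} : Set X)
  letI : CommGroup H :=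
    { (inferInstance : Group H) with mul_comm := fun a b => Subtype.ext (hab a a.2 b b.2) }
  letI : Fintype H := Fintype.ofFinite H
  exact core p V hVexp hidx hself G hGV v hv (A := H) H.subtype Subtype.val_injective
    (Subgroup.range_subtype H)

end Final

end Cfsg.Agent.Lib.KGV.AbStab
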