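import Cfsg.Agent.Lib.KGV.Lattice
import Cfsg.Agent.Lib.Coprime.Maschke
import Cfsg.Agent.Lib.Coprime.Bridge

set_option autoImplicit false
set_option linter.style.haveILetI false

/-!
# Decomposing a coprime module for an abelian group

For a commutative group `A` acting coprimely by conjugation on an elementary abelian subgroup `U`,
there is a list `L` of subgroups of `A`, with intersection the kernel of the action, such that the
weight `W L a` is at most `|U : C_U(a)|`.
-/

namespace Cfsg.Agent.Lib.KGV.Decomp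

open Cfsg.Agent.Lib.KGV.Lattice

variable {X : Type*} [Group X] [Finite X] {A : Type*} [CommGroup A] [Finite A] (ι : A →* X)

/-- The kernel of the action on `U`. -/
def cA (U : Subgroup X) : Subgroup A := (Subgroup.centralizer (U : Set X)).comap ι

lemma mem_cA {U : Subgroup X} {a : A} : a ∈ cA ι U ↔ ∀ u ∈ U, u * ι a = ι a * u := by
  simp [cA, Subgroup.mem_centralizer_iff, eq_comm]

/-- The fixed points of `a` on `U`. -/
def cU (U : Subgroup X) (a : A) : Subgroup X := U ⊓ Subgroup.centralizer ({ι a} : Set X)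

lemma mem_cU {U : Subgroup X} {a : A} {u : X} : u ∈ cU ι U a ↔ u ∈ U ∧ u * ι a = ι a * u := by
  simp [cU, Subgroup.mem_inf, Subgroup.mem_centralizer_singleton_iff]

/-- Invariance of a subgroup. -/
def Inv (U : Subgroup X) : Prop := ∀ a : A, ∀ u ∈ U, ι a * u * (ι a)⁻¹ ∈ U

lemma le_normalizer {U : Subgroup X} (hU : Inv ι U) : ι.range ≤ Subgroup.normalizer (U : Set X) := by
  rintro _ ⟨a, rfl⟩
  rw [Subgroup.mem_normalizer_iff]
  intro u
  constructor
  · exact hU a u
  · intro h
    have := hU a⁻¹ _ h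
    simpa [mul_assoc] using this

lemma inv_of_le_normalizer {U : Subgroup X} (h : ι.range ≤ Subgroup.normalizer (U : Set X)) :
    Inv ι U := by
  intro a u hu
  exact (Subgroup.mem_normalizer_iff.mp (h ⟨a, rfl⟩) u).mp hu

lemma cU_inv {U : Subgroup X} (hU : Inv ι U) (a : A) : Inv ι (cU ι U a) := by
  intro b u hu
  rw [mem_cU] at hu ⊢
  refine ⟨hU b u hu.1, ?_⟩
  have hc : ι b * ι a = ι a * ι b := by rw [← map_mul, ← map_mul, mul_comm]
  calc ι b * u * (ι b)⁻¹ * ι a = ι b * u * ((ι b)⁻¹ * ι a) := by group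
    _ = ι b * u * (ι a * (ι b)⁻¹) := by
      congr 1
      rw [inv_mul_eq_iff_eq_mul, ← mul_assoc, hc, mul_assoc, mul_inv_cancel, mul_one]
    _ = ι b * (u * ι a) * (ι b)⁻¹ := by group
    _ = ι b * (ι a * u) * (ι b)⁻¹ := by rw [hu.2]
    _ = (ι b * ι a) * u * (ι b)⁻¹ := by group
    _ = (ι a * ι b) * u * (ι b)⁻¹ := by rw [hc]
    _ = ι a * (ι b * u * (ι b)⁻¹) := by group

variable {ι}

/-- A minimal invariant subgroup: the action is fixed point free modulo the kernel, and the kernel
has index less than the size of the subgroup. -/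
theorem minimal_index {U : Subgroup X} (hU : Inv ι U) (hne : U ≠ ⊥)
    (hmin : ∀ U' : Subgroup X, U' ≤ U → U' ≠ ⊥ → Inv ι U' → U ≤ U') :
    (∀ a : A, a ∉ cA ι U → cU ι U a = ⊥) ∧ 1 + (cA ι U).index ≤ Nat.card U := by
  classical
  have hfix : ∀ a : A, a ∉ cA ι U → cU ι U a = ⊥ := by
    intro a ha
    by_contra hcon
    have h1 := hmin (cU ι U a) inf_le_left hcon (cU_inv ι hU a)
    apply ha
    rw [mem_cA]
    intro u hu
    exact (mem_cU ι).mp (h1 hu) |>.2
  refine ⟨hfix, ?_⟩
  obtain ⟨u₀, hu₀, hu₀1⟩ := (Subgroup.ne_bot_iff_exists_ne_one).mp hne |>.elim fun x hx => (⟨x.1, x.2, fun h => hx (Subtype.ext h)⟩ : ∃ u₀ ∈ U, u₀ ≠ 1)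
  let f : A → U := fun a => ⟨ι a * u₀ * (ι a)⁻¹, hU a u₀ hu₀⟩
  have hf : ∀ a a' : A, f a = f a' ↔ a⁻¹ * a' ∈ cA ι U := by
    intro a a'
    have h1 : f a = f a' ↔ u₀ * ι (a⁻¹ * a') = ι (a⁻¹ * a') * u₀ := by
      rw [Subtype.ext_iff]
      simp only [f, map_mul, map_inv]
      constructor
      · intro h
        have h2 : u₀ = (ι a)⁻¹ * (ι a' * u₀ * (ι a')⁻¹) * ι a := by
          rw [← h]; group
        calc u₀ * ((ι a)⁻¹ * ι a') = (ι a)⁻¹ * (ι a' * u₀ * (ι a')⁻¹) * ι a * ((ι a)⁻¹ * ι a') := by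
              rw [← h2]
          _ = (ι a)⁻¹ * ι a' * u₀ := by group
      · intro h
        have h2 : ι a' * u₀ = ι a * (u₀ * ((ι a)⁻¹ * ι a')) := by
          rw [h]; group
        rw [eq_mul_inv_iff_mul_eq, h2]
        group
    rw [h1]
    constructor
    · intro h
      by_contra hcon
      have := hfix _ hcon
      have hm : u₀ ∈ cU ι U (a⁻¹ * a') := (mem_cU ι).mpr ⟨hu₀, h⟩
      rw [this, Subgroup.mem_bot] at hm
      exact hu₀1 hm
    · intro h
      exact (mem_cA ι).mp h u₀ hu₀
  let F : A ⧸ cA ι U → U := Quotient.lift f (by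
    intro a a' h
    exact (hf a a').mpr (QuotientGroup.leftRel_apply.mp h))
  have hFinj : Function.Injective F := by
    intro x y
    induction x using QuotientGroup.induction_on with
    | H a =>
      induction y using QuotientGroup.induction_on with
      | H a' =>
        intro h
        exact QuotientGroup.eq.mpr ((hf a a').mp h)
  have hF1 : ∀ q, F q ≠ 1 := by
    intro q
    induction q using QuotientGroup.induction_on with
    | H a =>
      intro h
      have h2 : ι a * u₀ * (ι a)⁻¹ = 1 := congrArg Subtype.val h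
      apply hu₀1
      have : u₀ = (ι a)⁻¹ * (ι a * u₀ * (ι a)⁻¹) * ι a := by group
      rw [this, h2]
      group
  let G : Option (A ⧸ cA ι U) → U := fun o => o.elim 1 F
  have hG : Function.Injective G := by
    rintro (_ | x) (_ | y) h
    · rfl
    · exact absurd h.symm (hF1 y)
    · exact absurd h (hF1 x)
    · rw [hFinj h]
  have h3 := Nat.card_le_card_of_injective G hG
  rw [Finite.card_option] at h3
  have h4 : Nat.card (A ⧸ cA ι U) = (cA ι U).index := rfl
  omega

variable (ι)

/-- A direct decomposition of a subgroup into two invariant subgroups. -/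
theorem card_cU_le {U U₁ U₂ : Subgroup X} (h1 : Inv ι U₁) (h2 : Inv ι U₂)
    (hI : U₁ ⊓ U₂ = ⊥) (hcomm : ∀ x ∈ U, ∀ y ∈ U, x * y = y * x)
    (hS : U₁ ⊔ U₂ = U) (a : A) :
    Nat.card (cU ι U a) ≤ Nat.card (cU ι U₁ a) * Nat.card (cU ι U₂ a) := by
  classical
  have hle : U₂ ≤ Subgroup.normalizer (U₁ : Set X) := by
    rw [Subgroup.le_normalizer_iff] 
    intro w hw u hu
    have hwU : w ∈ U := hS ▸ Subgroup.mem_sup_right hw
    have huU : u ∈ U := hS ▸ Subgroup.mem_sup_left hu
    rw [hcomm w hwU u huU]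
    simpa using hu
  have hdec : ∀ y : cU ι U a, ∃ q : cU ι U₁ a × cU ι U₂ a, (y : X) = (q.1 : X) * (q.2 : X) := by
    rintro ⟨y, hy⟩
    rw [mem_cU] at hy
    have hy1 : y ∈ U₁ ⊔ U₂ := by rw [hS]; exact hy.1
    obtain ⟨u, hu, w, hw, rfl⟩ :=
      Cfsg.Agent.Lib.Coprime.Action.exists_mul_of_mem_sup (A := U₂) (K := U₁) hle hy1
    have hfix : (ι a * u * (ι a)⁻¹) * (ι a * w * (ι a)⁻¹) = u * w := by
      have h3 : ι a * (u * w) * (ι a)⁻¹ = u * w := by
        rw [← hy.2, mul_assoc, mul_inv_cancel, mul_one]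
      rw [← h3]
      group
    have hu' := h1 a u hu
    have hw' := h2 a w hw
    have hmem : u⁻¹ * (ι a * u * (ι a)⁻¹) ∈ U₁ ⊓ U₂ := by
      refine ⟨U₁.mul_mem (U₁.inv_mem hu) hu', ?_⟩
      have : u⁻¹ * (ι a * u * (ι a)⁻¹) = w * (ι a * w * (ι a)⁻¹)⁻¹ := by
        rw [eq_mul_inv_iff_mul_eq, mul_assoc, hfix]
        group
      rw [this]
      exact U₂.mul_mem hw (U₂.inv_mem hw')
    rw [hI, Subgroup.mem_bot] at hmem
    have e1 : ι a * u * (ι a)⁻¹ = u := by
      have := mul_eq_one_iff_eq_inv.mp hmem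
      exact (inv_injective this).symm
    have e2 : ι a * w * (ι a)⁻¹ = w := by
      rw [e1] at hfix
      exact mul_left_cancel hfix
    refine ⟨⟨⟨u, (mem_cU ι).mpr ⟨hu, ?_⟩⟩, ⟨w, (mem_cU ι).mpr ⟨hw, ?_⟩⟩⟩, rfl⟩
    · rw [mul_inv_eq_iff_eq_mul] at e1
      exact e1.symm
    · rw [mul_inv_eq_iff_eq_mul] at e2
      exact e2.symm
  choose F hF using hdec
  have hinj : Function.Injective F := by
    intro x y h
    apply Subtype.ext
    rw [hF x, hF y, h]
  have := Nat.card_le_card_of_injective F hinj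
  rwa [Nat.card_prod] at this

/-- The main decomposition. -/
theorem exists_list {p : ℕ} [Fact p.Prime] {V : Subgroup X}
    (hcomm : ∀ x ∈ V, ∀ y ∈ V, x * y = y * x) (hexp : ∀ x ∈ V, x ^ p = 1)
    (hcop : (Nat.card ι.range).Coprime (Nat.card V)) :
    ∀ (n : ℕ) (U : Subgroup X), Nat.card U = n → U ≤ V → Inv ι U →
      ∃ L : List (Subgroup A), meet L = cA ι U ∧
        ∀ a : A, W L a * (Nat.card (cU ι U a) : ℝ) ≤ (Nat.card U : ℝ) := by
  classical
  intro n
  induction n using Nat.strong_induction_on with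
  | _ n ih =>
    intro U hn hUV hU
    by_cases hbot : U = ⊥
    · subst hbot
      refine ⟨[], ?_, ?_⟩
      · ext a
        simp [meet, mem_cA]
      · intro a
        have h1 : cU ι (⊥ : Subgroup X) a = ⊥ := by
          simp [cU]
        rw [h1]
        simp [W]
    · -- a minimal invariant subgroup
      obtain ⟨U₁, hU₁U, hmin⟩ := Finite.exists_le_minimal
        (p := fun U' : Subgroup X => U' ≠ ⊥ ∧ Inv ι U') (a := U) ⟨hbot, hU⟩
      obtain ⟨hU₁ne, hU₁inv⟩ := hmin.prop
      have hmin' : ∀ U' : Subgroup X, U' ≤ U₁ → U' ≠ ⊥ → Inv ι U' → U₁ ≤ U' :=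
        fun U' h1 h2 h3 => hmin.le_of_le ⟨h2, h3⟩ h1
      obtain ⟨hfix, hidx⟩ := minimal_index hU₁inv hU₁ne hmin'
      have hUcomm : ∀ x ∈ U, ∀ y ∈ U, x * y = y * x :=
        fun x hx y hy => hcomm x (hUV hx) y (hUV hy)
      obtain ⟨W₀, hW₀U, hW₀I, hW₀S⟩ :=
        Cfsg.Agent.Lib.Coprime.Bridge.exists_complement_of_elementary (p := p) U U₁ hUcomm
          (fun x hx => hexp x (hUV hx)) hU₁U
      have hUC : IsMulCommutative U :=
        ⟨⟨fun a b => Subtype.ext (hUcomm a a.2 b b.2)⟩⟩
      have hcop' : (Nat.card ι.range).Coprime (Nat.card U) :=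
        hcop.coprime_dvd_right (Subgroup.card_dvd_of_le hUV)
      obtain ⟨U₂, hU₂U, hU₂N, hI, hS⟩ :=
        Cfsg.Agent.Lib.Coprime.Maschke.exists_invariant_complement U ι.range U₁ W₀
          (le_normalizer ι hU) hcop' hU₁U (le_normalizer ι hU₁inv) hW₀U hW₀I hW₀S
      have hU₂inv : Inv ι U₂ := inv_of_le_normalizer ι hU₂N
      -- cardinalities
      have hcard : Nat.card U = Nat.card U₁ * Nat.card U₂ := by
        have hle : U₂ ≤ Subgroup.normalizer (U₁ : Set X) := by
          rw [Subgroup.le_normalizer_iff]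
          intro w hw u hu
          rw [hUcomm w (hU₂U hw) u (hU₁U hu)]
          simpa using hu
        let g : U₁ × U₂ → U := fun q => ⟨(q.1 : X) * (q.2 : X), U.mul_mem (hU₁U q.1.2) (hU₂U q.2.2)⟩
        have hg : Function.Bijective g := by
          constructor
          · rintro ⟨⟨a, ha⟩, ⟨b, hb⟩⟩ ⟨⟨c, hc⟩, ⟨d, hd⟩⟩ h
            have h1 : a * b = c * d := congrArg Subtype.val h
            have h2 : c⁻¹ * a ∈ U₁ ⊓ U₂ := by
              refine ⟨U₁.mul_mem (U₁.inv_mem hc) ha, ?_⟩
              have : c⁻¹ * a = d * b⁻¹ := by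
                rw [inv_mul_eq_iff_eq_mul, ← mul_assoc, ← h1]
                group
              rw [this]
              exact U₂.mul_mem hd (U₂.inv_mem hb)
            rw [hI, Subgroup.mem_bot] at h2
            have h3 : a = c := by
              rw [inv_mul_eq_one] at h2
              exact h2.symm
            subst h3
            have h4 : b = d := mul_left_cancel h1
            subst h4
            rfl
          · rintro ⟨y, hy⟩
            have hy1 : y ∈ U₁ ⊔ U₂ := by rw [hS]; exact hy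
            obtain ⟨u, hu, w, hw, rfl⟩ :=
              Cfsg.Agent.Lib.Coprime.Action.exists_mul_of_mem_sup (A := U₂) (K := U₁) hle hy1
            exact ⟨⟨⟨u, hu⟩, ⟨w, hw⟩⟩, rfl⟩
        rw [← Nat.card_congr (Equiv.ofBijective g hg), Nat.card_prod]
      have hU₁card : 1 < Nat.card U₁ := by
        have := (Subgroup.one_lt_card_iff_ne_bot U₁).mpr hU₁ne
        exact this
      have hU₂pos : 0 < Nat.card U₂ := Nat.card_pos
      have hlt : Nat.card U₂ < n := by
        rw [← hn, hcard]
        nlinarith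
      obtain ⟨L', hL'1, hL'2⟩ := ih _ hlt U₂ rfl (hU₂U.trans hUV) hU₂inv
      refine ⟨cA ι U₁ :: L', ?_, ?_⟩
      · show cA ι U₁ ⊓ meet L' = cA ι U
        rw [hL'1]
        ext a
        constructor
        · rintro ⟨h1, h2⟩
          have h1 : ∀ u ∈ U₁, u * ι a = ι a * u := (mem_cA ι).mp h1
          have h2 : ∀ u ∈ U₂, u * ι a = ι a * u := (mem_cA ι).mp h2
          rw [mem_cA]
          have hsub : U ≤ (Subgroup.centralizer ({ι a} : Set X)) := by
            rw [← hS, sup_le_iff]
            constructor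
            · intro u hu
              rw [Subgroup.mem_centralizer_singleton_iff]
              exact h1 u hu
            · intro u hu
              rw [Subgroup.mem_centralizer_singleton_iff]
              exact h2 u hu
          intro u hu
          exact Subgroup.mem_centralizer_singleton_iff.mp (hsub hu)
        · intro h
          rw [mem_cA] at h
          exact ⟨(mem_cA ι).mpr fun u hu => h u (hU₁U hu), (mem_cA ι).mpr fun u hu => h u (hU₂U hu)⟩
      · intro a
        have hC := card_cU_le ι hU₁inv hU₂inv hI hUcomm hS a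
        have hC' : (Nat.card (cU ι U a) : ℝ) ≤ (Nat.card (cU ι U₁ a) : ℝ) * (Nat.card (cU ι U₂ a) : ℝ) := by
          exact_mod_cast hC
        have hb := hL'2 a
        have hWnn : 0 ≤ W L' a := (W_pos L' a).le
        have hU₁real : (0 : ℝ) < Nat.card U₁ := by exact_mod_cast Nat.card_pos
        have hcardR : (Nat.card U : ℝ) = (Nat.card U₁ : ℝ) * (Nat.card U₂ : ℝ) := by
          exact_mod_cast hcard
        simp only [W]
        rw [hcardR]
        have hc2 : 0 ≤ (Nat.card (cU ι U₂ a) : ℝ) := by positivity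
        by_cases ha : a ∈ cA ι U₁
        · have hw1 : wt (cA ι U₁) a = 1 := by simp [wt, ha]
          have hc1 : (Nat.card (cU ι U₁ a) : ℝ) ≤ Nat.card U₁ := by
            exact_mod_cast Subgroup.card_le_of_le (inf_le_left : cU ι U₁ a ≤ U₁)
          rw [hw1, one_mul]
          calc W L' a * (Nat.card (cU ι U a) : ℝ)
              ≤ W L' a * ((Nat.card (cU ι U₁ a) : ℝ) * (Nat.card (cU ι U₂ a) : ℝ)) :=
                mul_le_mul_of_nonneg_left hC' hWnn
            _ = (Nat.card (cU ι U₁ a) : ℝ) * (W L' a * (Nat.card (cU ι U₂ a) : ℝ)) := by ring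
            _ ≤ (Nat.card U₁ : ℝ) * (W L' a * (Nat.card (cU ι U₂ a) : ℝ)) :=
                mul_le_mul_of_nonneg_right hc1 (mul_nonneg hWnn hc2)
            _ ≤ (Nat.card U₁ : ℝ) * (Nat.card U₂ : ℝ) :=
                mul_le_mul_of_nonneg_left hb hU₁real.le
        · have hw1 : wt (cA ι U₁) a = 1 + ((cA ι U₁).index : ℝ) := by simp [wt, ha]
          have hc1 : Nat.card (cU ι U₁ a) = 1 := by
            rw [hfix a ha]
            simp
          rw [hw1]
          rw [hc1] at hC'
          simp only [Nat.cast_one, one_mul] at hC'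
          have hidx' : (1 : ℝ) + ((cA ι U₁).index : ℝ) ≤ Nat.card U₁ := by exact_mod_cast hidx
          have hw0 : (0 : ℝ) ≤ 1 + ((cA ι U₁).index : ℝ) := by positivity
          calc (1 + ((cA ι U₁).index : ℝ)) * W L' a * (Nat.card (cU ι U a) : ℝ)
              ≤ (1 + ((cA ι U₁).index : ℝ)) * W L' a * (Nat.card (cU ι U₂ a) : ℝ) :=
                mul_le_mul_of_nonneg_left hC' (mul_nonneg hw0 hWnn)
            _ = (1 + ((cA ι U₁).index : ℝ)) * (W L' a * (Nat.card (cU ι U₂ a) : ℝ)) := by ring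
            _ ≤ (Nat.card U₁ : ℝ) * (Nat.card U₂ : ℝ) :=
                mul_le_mul hidx' hb (mul_nonneg hWnn hc2) hU₁real.le

end Cfsg.Agent.Lib.KGV.Decomp
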