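import Mathlib

set_option autoImplicit false
set_option linter.style.haveILetI false

/-!
# A lattice minimum for families of linear characters of an abelian group

The weights `W L a = ∏_{B ∈ L} (1 if a ∈ B, 1 + |A : B| otherwise)`.  The theorem `main` bounds
below the weighted norm of a `ℤ`-combination of linear characters whose coefficients satisfy a
base inequality.
-/

namespace Cfsg.Agent.Lib.KGV.Lattice

open scoped ComplexConjugate

section Orth

variable {K : Type*} [Group K] [Fintype K]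

lemma norm_hom (κ : K →* ℂˣ) (k : K) : ‖((κ k : ℂˣ) : ℂ)‖ = 1 := by
  have h1 : ((κ k : ℂˣ) : ℂ) ^ Fintype.card K = 1 := by
    have : κ k ^ Fintype.card K = 1 := by
      rw [← map_pow, pow_card_eq_one, map_one]
    rw [← Units.val_pow_eq_pow_val, this, Units.val_one]
  exact Complex.norm_eq_one_of_pow_eq_one h1 Fintype.card_ne_zero

lemma conj_hom (κ : K →* ℂˣ) (k : K) : conj ((κ k : ℂˣ) : ℂ) = (((κ k)⁻¹ : ℂˣ) : ℂ) := by
  have h := norm_hom κ k
  have h2 : ((κ k : ℂˣ) : ℂ) * conj ((κ k : ℂˣ) : ℂ) = 1 := by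
    rw [Complex.mul_conj, Complex.normSq_eq_norm_sq, h]; simp
  have h3 : ((κ k : ℂˣ) : ℂ) * (((κ k)⁻¹ : ℂˣ) : ℂ) = 1 := by simp
  exact mul_left_cancel₀ (Units.ne_zero (κ k)) (h2.trans h3.symm)

lemma sum_hom_eq_zero (φ : K →* ℂˣ) (hφ : φ ≠ 1) : ∑ k, ((φ k : ℂˣ) : ℂ) = 0 := by
  obtain ⟨k₀, hk₀⟩ : ∃ k₀, φ k₀ ≠ 1 := by
    by_contra hcon
    push Not at hcon
    exact hφ (MonoidHom.ext hcon)
  have h1 : ∑ k, ((φ k : ℂˣ) : ℂ) = ((φ k₀ : ℂˣ) : ℂ) * ∑ k, ((φ k : ℂˣ) : ℂ) := by
    rw [Finset.mul_sum]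
    refine (Fintype.sum_equiv (Equiv.mulLeft k₀) _ _ fun k => ?_).symm
    simp [map_mul]
  have h2 : (1 - ((φ k₀ : ℂˣ) : ℂ)) * ∑ k, ((φ k : ℂˣ) : ℂ) = 0 := by
    rw [sub_mul, one_mul, ← h1, sub_self]
  have h3 : (1 - ((φ k₀ : ℂˣ) : ℂ)) ≠ 0 := by
    intro h
    apply hk₀
    apply Units.ext
    have := sub_eq_zero.mp h
    simpa using this.symm
  exact (mul_eq_zero.mp h2).resolve_left h3

lemma sum_hom_mul_conj [DecidableEq (K →* ℂˣ)] (κ κ' : K →* ℂˣ) :
    ∑ k, ((κ k : ℂˣ) : ℂ) * conj ((κ' k : ℂˣ) : ℂ) = if κ = κ' then (Fintype.card K : ℂ) else 0 := by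
  split_ifs with h
  · subst h
    have : ∀ k, ((κ k : ℂˣ) : ℂ) * conj ((κ k : ℂˣ) : ℂ) = 1 := by
      intro k
      rw [Complex.mul_conj, Complex.normSq_eq_norm_sq, norm_hom]; simp
    simp [this]
  · have hne : κ * κ'⁻¹ ≠ 1 := by
      intro h'
      apply h
      exact mul_inv_eq_one.mp h'
    have := sum_hom_eq_zero (κ * κ'⁻¹) hne
    rw [← this]
    refine Finset.sum_congr rfl fun k _ => ?_
    rw [conj_hom]
    simp

lemma norm_sq_cast (z : ℂ) : ((‖z‖ ^ 2 : ℝ) : ℂ) = z * conj z := by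
  rw [Complex.mul_conj, Complex.normSq_eq_norm_sq]

/-- Parseval. -/
theorem parseval (N : Finset (K →* ℂˣ)) (x : (K →* ℂˣ) → ℂ) :
    ∑ k, ‖∑ κ ∈ N, ((κ k : ℂˣ) : ℂ) * x κ‖ ^ 2 = (Fintype.card K : ℝ) * ∑ κ ∈ N, ‖x κ‖ ^ 2 := by
  classical
  apply Complex.ofReal_injective
  push_cast
  have h1 : ∀ z : ℂ, ((‖z‖ : ℂ)) ^ 2 = z * conj z := fun z => by
    have := norm_sq_cast z
    push_cast at this
    exact this
  simp_rw [h1]
  simp_rw [map_sum, map_mul, Finset.sum_mul_sum]
  rw [Finset.sum_comm]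
  have h2 : ∀ κ ∈ N, ∑ k, ∑ κ' ∈ N, ((κ k : ℂˣ) : ℂ) * x κ * (conj ((κ' k : ℂˣ) : ℂ) * conj (x κ')) =
      (Fintype.card K : ℂ) * (x κ * conj (x κ)) := by
    intro κ hκ
    rw [Finset.sum_comm]
    have h3 : ∀ κ' ∈ N, ∑ k, ((κ k : ℂˣ) : ℂ) * x κ * (conj ((κ' k : ℂˣ) : ℂ) * conj (x κ')) =
        (∑ k, ((κ k : ℂˣ) : ℂ) * conj ((κ' k : ℂˣ) : ℂ)) * (x κ * conj (x κ')) := by
      intro κ' _
      rw [Finset.sum_mul]
      refine Finset.sum_congr rfl fun k _ => ?_
      ring
    rw [Finset.sum_congr rfl h3]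
    simp_rw [sum_hom_mul_conj]
    rw [Finset.sum_eq_single κ]
    · simp
    · intro b _ hb
      simp [Ne.symm hb]
    · intro h
      exact absurd hκ h
  rw [Finset.sum_congr rfl h2, Finset.mul_sum]

end Orth

section Weights

variable {A : Type*} [CommGroup A]

open Classical in
/-- The weight of one subgroup. -/
noncomputable def wt (B : Subgroup A) (a : A) : ℝ := if a ∈ B then 1 else 1 + (B.index : ℝ)

/-- The weight of a list of subgroups. -/
noncomputable def W : List (Subgroup A) → A → ℝ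
  | [], _ => 1
  | B :: L, a => wt B a * W L a

/-- The intersection of a list of subgroups. -/
def meet : List (Subgroup A) → Subgroup A
  | [] => ⊤
  | B :: L => B ⊓ meet L

lemma wt_pos (B : Subgroup A) (a : A) : 0 < wt B a := by
  unfold wt
  split_ifs
  · norm_num
  · positivity

lemma W_pos (L : List (Subgroup A)) (a : A) : 0 < W L a := by
  induction L with
  | nil => simp [W]
  | cons B L ih => exact mul_pos (wt_pos B a) ih

lemma wt_mul_of_mem (B : Subgroup A) (a : A) {k : A} (hk : k ∈ B) : wt B (a * k) = wt B a := by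
  unfold wt
  have h : a * k ∈ B ↔ a ∈ B := Subgroup.mul_mem_cancel_right B hk
  by_cases h1 : a ∈ B
  · rw [if_pos h1, if_pos (h.mpr h1)]
  · rw [if_neg h1, if_neg (fun h2 => h1 (h.mp h2))]

lemma W_mul_of_mem (L : List (Subgroup A)) (a : A) {k : A} (hk : k ∈ meet L) :
    W L (a * k) = W L a := by
  induction L with
  | nil => simp [W]
  | cons B L ih =>
    have hk' : k ∈ B ⊓ meet L := hk
    simp only [W]
    rw [wt_mul_of_mem B a hk'.1, ih hk'.2]

end Weights

section Main

variable {A : Type*} [CommGroup A] [Fintype A]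
variable {I J : Type*} [Fintype J]
variable (μ : I → A →* ℂˣ) (τ : I → J → ℂ)

/-- The family of functions. -/
noncomputable def fam (C : Finset I) (j : J) (a : A) : ℂ := ∑ i ∈ C, τ i j * ((μ i a : ℂˣ) : ℂ)

lemma norm_hom' (i : I) (a : A) : ‖((μ i a : ℂˣ) : ℂ)‖ = 1 := norm_hom (μ i) a

/-- Base of the induction. -/
theorem main_nil (hbase : ∀ C : Finset I, (∃ j, ∑ i ∈ C, τ i j ≠ 0) →
      (Fintype.card J : ℝ) ≤ ∑ j, ‖∑ i ∈ C, τ i j‖ ^ 2)
    (C : Finset I) (hC : ∀ i ∈ C, ∀ i' ∈ C, ∀ b : A, μ i b = μ i' b)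
    (hne : ∃ j a, fam μ τ C j a ≠ 0) :
    (Fintype.card J : ℝ) * Fintype.card A ≤ ∑ j, ∑ a, ‖fam μ τ C j a‖ ^ 2 := by
  obtain ⟨j₀, a₀, h₀⟩ := hne
  obtain ⟨i₀, hi₀⟩ : C.Nonempty := by
    by_contra hcon
    rw [Finset.not_nonempty_iff_eq_empty] at hcon
    apply h₀
    simp [fam, hcon]
  have hf : ∀ j a, fam μ τ C j a = (∑ i ∈ C, τ i j) * ((μ i₀ a : ℂˣ) : ℂ) := by
    intro j a
    rw [fam, Finset.sum_mul]
    refine Finset.sum_congr rfl fun i hi => ?_
    rw [hC i hi i₀ hi₀ a]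
  have hn : ∀ j a, ‖fam μ τ C j a‖ ^ 2 = ‖∑ i ∈ C, τ i j‖ ^ 2 := by
    intro j a
    rw [hf, norm_mul, norm_hom', mul_one]
  have hex : ∃ j, ∑ i ∈ C, τ i j ≠ 0 := by
    refine ⟨j₀, fun h => h₀ ?_⟩
    rw [hf, h, zero_mul]
  have := hbase C hex
  simp_rw [hn]
  simp only [Finset.sum_const, Finset.card_univ, nsmul_eq_mul]
  rw [← Finset.mul_sum, mul_comm]
  exact mul_le_mul_of_nonneg_left this (by positivity)

/-- The elementary inequality at the end of the induction step. -/
lemma final_ineq {s e n : ℝ} (hn1 : 1 ≤ n) (hns : n ≤ s) (hes : s ≤ e) :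
    s ^ 2 ≤ n * (s + e * s - e * n) := by
  have h1 : 0 ≤ s - n := by linarith
  have h2 : 0 ≤ e * n - s := by nlinarith
  nlinarith [mul_nonneg h1 h2]

open Classical in
/-- The main theorem. -/
theorem main (hbase : ∀ C : Finset I, (∃ j, ∑ i ∈ C, τ i j ≠ 0) →
      (Fintype.card J : ℝ) ≤ ∑ j, ‖∑ i ∈ C, τ i j‖ ^ 2) :
    ∀ (L : List (Subgroup A)) (C : Finset I), (∀ i ∈ C, ∀ i' ∈ C, ∀ b ∈ meet L, μ i b = μ i' b) →
      (∃ j a, fam μ τ C j a ≠ 0) →
      (Fintype.card J : ℝ) * Fintype.card A * ((meet L).index : ℝ) ≤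
        ∑ j, ∑ a, W L a * ‖fam μ τ C j a‖ ^ 2 := by
  intro L
  induction L with
  | nil =>
    intro C hC hne
    have h := main_nil μ τ hbase C (fun i hi i' hi' b => hC i hi i' hi' b trivial) hne
    simpa [meet, W] using h
  | cons B L ih =>
    intro C hC hne
    set K : Subgroup A := meet L with hK
    have hmeet : meet (B :: L) = B ⊓ K := rfl
    let _ : Fintype K := Fintype.ofFinite K
    -- the classes
    let res : I → (K →* ℂˣ) := fun i => (μ i).comp K.subtype
    let Cl : Finset (K →* ℂˣ) := C.image res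
    let Cc : (K →* ℂˣ) → Finset I := fun κ => C.filter fun i => res i = κ
    have hdec : ∀ j a, fam μ τ C j a = ∑ κ ∈ Cl, fam μ τ (Cc κ) j a := by
      intro j a
      rw [fam, ← Finset.sum_fiberwise_of_maps_to (s := C) (t := Cl) (g := res)
        (fun i hi => Finset.mem_image_of_mem res hi)]
      rfl
    let N : Finset (K →* ℂˣ) := Cl.filter fun κ => ∃ j a, fam μ τ (Cc κ) j a ≠ 0
    have hdecN : ∀ j a, fam μ τ C j a = ∑ κ ∈ N, fam μ τ (Cc κ) j a := by
      intro j a
      rw [hdec, Finset.sum_filter]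
      refine Finset.sum_congr rfl fun κ _ => ?_
      split_ifs with h
      · rfl
      · push Not at h
        exact h j a
    have hequiv : ∀ κ j a (k : K), fam μ τ (Cc κ) j (a * k) =
        ((κ k : ℂˣ) : ℂ) * fam μ τ (Cc κ) j a := by
      intro κ j a k
      rw [fam, fam, Finset.mul_sum]
      refine Finset.sum_congr rfl fun i hi => ?_
      have hi2 : res i = κ := (Finset.mem_filter.mp hi).2
      have : μ i k = κ k := by rw [← hi2]; rfl
      rw [map_mul, Units.val_mul, this]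
      ring
    have hg : ∀ j a (k : K), fam μ τ C j (a * k) =
        ∑ κ ∈ N, ((κ k : ℂˣ) : ℂ) * fam μ τ (Cc κ) j a := by
      intro j a k
      rw [hdecN]
      exact Finset.sum_congr rfl fun κ _ => hequiv κ j a k
    set n : ℕ := N.card with hn
    have hn1 : 1 ≤ n := by
      obtain ⟨j₀, a₀, h₀⟩ := hne
      rw [Nat.one_le_iff_ne_zero, hn, Finset.card_ne_zero]
      by_contra hcon
      rw [Finset.not_nonempty_iff_eq_empty] at hcon
      apply h₀
      rw [hdecN, hcon, Finset.sum_empty]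
    -- `ℓ` and `s`
    let _ : Fintype (B.subgroupOf K) := Fintype.ofFinite _
    set ℓ : ℕ := Fintype.card (B.subgroupOf K) with hℓ
    set s : ℕ := (B.subgroupOf K).index with hs
    set e : ℕ := B.index with he
    have hKcard : Fintype.card K = s * ℓ := by
      have := (B.subgroupOf K).index_mul_card
      rw [Nat.card_eq_fintype_card, Nat.card_eq_fintype_card] at this
      exact this.symm
    have hℓpos : 0 < ℓ := Fintype.card_pos
    have hspos : 0 < s := Nat.pos_of_ne_zero Subgroup.index_ne_zero_of_finite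
    have hes : s ≤ e := by
      have hd : B.relIndex K ∣ B.index := Subgroup.relIndex_dvd_index_of_normal B K
      exact Nat.le_of_dvd (Nat.pos_of_ne_zero Subgroup.index_ne_zero_of_finite) hd
    have hind : (meet (B :: L)).index = s * K.index := by
      rw [hmeet]
      have h1 : (B ⊓ K).relIndex K = B.relIndex K := Subgroup.inf_relIndex_right B K
      have h2 := Subgroup.relIndex_mul_index (H := B ⊓ K) (K := K) inf_le_right
      rw [← h2, h1]
      rfl
    -- `n ≤ s`
    have hns : n ≤ s := by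
      have hpar := parseval N (fun _ => (1 : ℂ))
      simp only [mul_one, norm_one, one_pow, Finset.sum_const, nsmul_eq_mul] at hpar
      -- on `B ∩ K` all characters agree
      have hlow : (ℓ : ℝ) * (n : ℝ) ^ 2 ≤ ∑ k : K, ‖∑ κ ∈ N, ((κ k : ℂˣ) : ℂ)‖ ^ 2 := by
        obtain ⟨κ₀, hκ₀⟩ : N.Nonempty := Finset.card_pos.mp hn1
        have hagree : ∀ κ ∈ N, ∀ k : K, k ∈ B.subgroupOf K → κ k = κ₀ k := by
          intro κ hκ k hk
          obtain ⟨i, hi, rfl⟩ := Finset.mem_image.mp (Finset.mem_filter.mp hκ).1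
          obtain ⟨i₀, hi₀, rfl⟩ := Finset.mem_image.mp (Finset.mem_filter.mp hκ₀).1
          exact hC i hi i₀ hi₀ k ⟨hk, k.2⟩
        have h1 : ∀ k : B.subgroupOf K, ‖∑ κ ∈ N, (((κ (k : K)) : ℂˣ) : ℂ)‖ ^ 2 = (n : ℝ) ^ 2 := by
          intro k
          have : ∑ κ ∈ N, (((κ (k : K)) : ℂˣ) : ℂ) = (n : ℂ) * ((κ₀ (k : K) : ℂˣ) : ℂ) := by
            rw [Finset.sum_congr rfl (fun κ hκ => by rw [hagree κ hκ (k : K) k.2])]
            simp [hn]
          rw [this, norm_mul, norm_hom, mul_one, Complex.norm_natCast]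
        calc (ℓ : ℝ) * (n : ℝ) ^ 2 = ∑ k : B.subgroupOf K, ‖∑ κ ∈ N, (((κ (k : K)) : ℂˣ) : ℂ)‖ ^ 2 := by
              simp_rw [h1]
              simp [hℓ]
          _ ≤ ∑ k : K, ‖∑ κ ∈ N, ((κ k : ℂˣ) : ℂ)‖ ^ 2 := by
              have hinj : Function.Injective (fun k : B.subgroupOf K => (k : K)) := Subtype.val_injective
              rw [← Finset.sum_image (s := Finset.univ) (g := fun k : B.subgroupOf K => (k : K))
                (f := fun k : K => ‖∑ κ ∈ N, ((κ k : ℂˣ) : ℂ)‖ ^ 2) (fun a _ b _ h => hinj h)]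
              exact Finset.sum_le_sum_of_subset_of_nonneg (Finset.subset_univ _)
                (fun _ _ _ => by positivity)
      rw [hpar] at hlow
      have h2 : (ℓ : ℝ) * (n : ℝ) ≤ (Fintype.card K : ℝ) := by
        have hnpos : (0 : ℝ) < n := by exact_mod_cast hn1
        have : (ℓ : ℝ) * (n : ℝ) * n ≤ (Fintype.card K : ℝ) * n := by nlinarith
        exact le_of_mul_le_mul_right this hnpos
      rw [hKcard] at h2
      have h3 : ℓ * n ≤ s * ℓ := by exact_mod_cast h2
      have h4 : ℓ * n ≤ ℓ * s := by rwa [mul_comm s ℓ] at h3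
      exact Nat.le_of_mul_le_mul_left h4 hℓpos
    -- key inequality
    have hkey : ∀ j a, ((Fintype.card K : ℝ) * (1 + e) - e * ℓ * n) *
        (∑ κ ∈ N, ‖fam μ τ (Cc κ) j a‖ ^ 2) ≤
        ∑ k : K, wt B (a * k) * ‖fam μ τ C j (a * k)‖ ^ 2 := by
      intro j a
      set X : ℝ := ∑ κ ∈ N, ‖fam μ τ (Cc κ) j a‖ ^ 2 with hX
      have hXnn : 0 ≤ X := Finset.sum_nonneg fun _ _ => by positivity
      have hsplit : ∀ k : K, wt B (a * k) * ‖fam μ τ C j (a * k)‖ ^ 2 =
          (1 + e) * ‖fam μ τ C j (a * k)‖ ^ 2 -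
            (if a * k ∈ B then (e : ℝ) * ‖fam μ τ C j (a * k)‖ ^ 2 else 0) := by
        intro k
        unfold wt
        split_ifs <;> ring
      simp_rw [hsplit]
      rw [Finset.sum_sub_distrib, ← Finset.mul_sum]
      have hP : ∑ k : K, ‖fam μ τ C j (a * k)‖ ^ 2 = (Fintype.card K : ℝ) * X := by
        simp_rw [hg]
        exact parseval N (fun κ => fam μ τ (Cc κ) j a)
      rw [hP]
      have hC2 : ∀ k : K, ‖fam μ τ C j (a * k)‖ ^ 2 ≤ n * X := by
        intro k
        rw [hg]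
        calc ‖∑ κ ∈ N, ((κ k : ℂˣ) : ℂ) * fam μ τ (Cc κ) j a‖ ^ 2
            ≤ (∑ κ ∈ N, ‖((κ k : ℂˣ) : ℂ) * fam μ τ (Cc κ) j a‖) ^ 2 := by
              gcongr
              exact norm_sum_le _ _
          _ = (∑ κ ∈ N, ‖fam μ τ (Cc κ) j a‖) ^ 2 := by
              congr 1
              refine Finset.sum_congr rfl fun κ _ => ?_
              rw [norm_mul, norm_hom, one_mul]
          _ ≤ (N.card : ℝ) * ∑ κ ∈ N, ‖fam μ τ (Cc κ) j a‖ ^ 2 :=
              sq_sum_le_card_mul_sum_sq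
          _ = n * X := rfl
      have hsecond : ∑ k : K, (if a * k ∈ B then (e : ℝ) * ‖fam μ τ C j (a * k)‖ ^ 2 else 0) ≤
          e * ℓ * n * X := by
        have hcardS : ((Finset.univ.filter fun k : K => a * k ∈ B).card : ℝ) ≤ ℓ := by
          by_cases hemp : (Finset.univ.filter fun k : K => a * k ∈ B).Nonempty
          · obtain ⟨k₀, hk₀⟩ := hemp
            have hk₀' : a * k₀ ∈ B := (Finset.mem_filter.mp hk₀).2
            have : (Finset.univ.filter fun k : K => a * k ∈ B).card ≤ Fintype.card (B.subgroupOf K) := by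
              refine Finset.card_le_card_of_injOn
                (s := Finset.univ.filter fun k : K => a * k ∈ B) (t := Finset.univ)
                (fun k => if h : a * k ∈ B then
                  ⟨k₀⁻¹ * k, by
                    rw [Subgroup.mem_subgroupOf]
                    have : ((k₀⁻¹ * k : K) : A) = (a * k₀)⁻¹ * (a * k) := by
                      push_cast
                      rw [mul_inv_rev, mul_assoc, inv_mul_cancel_left]
                    rw [this]
                    exact mul_mem (inv_mem hk₀') h⟩ else 1)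
                (fun _ _ => Finset.mem_coe.mpr (Finset.mem_univ _)) ?_
              intro x hx y hy hxy
              have hx' : a * x ∈ B := (Finset.mem_filter.mp (Finset.mem_coe.mp hx)).2
              have hy' : a * y ∈ B := (Finset.mem_filter.mp (Finset.mem_coe.mp hy)).2
              simp only [dif_pos hx', dif_pos hy'] at hxy
              have := congrArg Subtype.val hxy
              exact mul_left_cancel this
            exact_mod_cast this
          · rw [Finset.not_nonempty_iff_eq_empty] at hemp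
            rw [hemp]
            simp
        calc ∑ k : K, (if a * k ∈ B then (e : ℝ) * ‖fam μ τ C j (a * k)‖ ^ 2 else 0)
            = ∑ k ∈ Finset.univ.filter (fun k : K => a * k ∈ B), (e : ℝ) * ‖fam μ τ C j (a * k)‖ ^ 2 := by
              rw [Finset.sum_filter]
          _ ≤ ∑ _k ∈ Finset.univ.filter (fun k : K => a * k ∈ B), (e : ℝ) * (n * X) :=
              Finset.sum_le_sum fun k _ => mul_le_mul_of_nonneg_left (hC2 k) (by positivity)
          _ = ((Finset.univ.filter fun k : K => a * k ∈ B).card : ℝ) * ((e : ℝ) * (n * X)) := by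
              rw [Finset.sum_const, nsmul_eq_mul]
          _ ≤ ℓ * ((e : ℝ) * (n * X)) :=
              mul_le_mul_of_nonneg_right hcardS (by positivity)
          _ = e * ℓ * n * X := by ring
      nlinarith [hsecond]
    -- summation in `a`
    have hsum : ∀ j, ((Fintype.card K : ℝ) * (1 + e) - e * ℓ * n) *
        ∑ a, W L a * (∑ κ ∈ N, ‖fam μ τ (Cc κ) j a‖ ^ 2) ≤
        (Fintype.card K : ℝ) * ∑ a, W (B :: L) a * ‖fam μ τ C j a‖ ^ 2 := by
      intro j
      have h1 : (Fintype.card K : ℝ) * ∑ a, W (B :: L) a * ‖fam μ τ C j a‖ ^ 2 =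
          ∑ a, W L a * ∑ k : K, wt B (a * k) * ‖fam μ τ C j (a * k)‖ ^ 2 := by
        have h2 : ∀ k : K, ∑ a, W (B :: L) a * ‖fam μ τ C j a‖ ^ 2 =
            ∑ a, W L a * (wt B (a * k) * ‖fam μ τ C j (a * k)‖ ^ 2) := by
          intro k
          refine (Fintype.sum_equiv (Equiv.mulRight (k : A)) _ _ fun a => ?_).symm
          simp only [W, Equiv.coe_mulRight]
          rw [W_mul_of_mem L a k.2]
          ring
        calc (Fintype.card K : ℝ) * ∑ a, W (B :: L) a * ‖fam μ τ C j a‖ ^ 2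
            = ∑ k : K, ∑ a, W (B :: L) a * ‖fam μ τ C j a‖ ^ 2 := by
              rw [Finset.sum_const, Finset.card_univ, nsmul_eq_mul]
          _ = ∑ k : K, ∑ a, W L a * (wt B (a * k) * ‖fam μ τ C j (a * k)‖ ^ 2) :=
              Finset.sum_congr rfl fun k _ => h2 k
          _ = ∑ a, W L a * ∑ k : K, wt B (a * k) * ‖fam μ τ C j (a * k)‖ ^ 2 := by
              rw [Finset.sum_comm]
              refine Finset.sum_congr rfl fun a _ => ?_
              rw [Finset.mul_sum]
      rw [h1, Finset.mul_sum]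
      refine Finset.sum_le_sum fun a _ => ?_
      have := mul_le_mul_of_nonneg_left (hkey j a) (W_pos L a).le
      calc _ = W L a * (((Fintype.card K : ℝ) * (1 + e) - e * ℓ * n) *
            (∑ κ ∈ N, ‖fam μ τ (Cc κ) j a‖ ^ 2)) := by ring
        _ ≤ _ := this
    -- induction hypothesis
    have hIH : ∀ κ ∈ N, (Fintype.card J : ℝ) * Fintype.card A * (K.index : ℝ) ≤
        ∑ j, ∑ a, W L a * ‖fam μ τ (Cc κ) j a‖ ^ 2 := by
      intro κ hκ
      refine ih (Cc κ) ?_ (Finset.mem_filter.mp hκ).2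
      intro i hi i' hi' b hb
      have h1 : res i = κ := (Finset.mem_filter.mp hi).2
      have h2 : res i' = κ := (Finset.mem_filter.mp hi').2
      have := congrArg (fun f : K →* ℂˣ => f ⟨b, hb⟩) (h1.trans h2.symm)
      exact this
    have hcoef : 0 ≤ (Fintype.card K : ℝ) * (1 + e) - e * ℓ * n := by
      have h1 : (ℓ : ℝ) * n ≤ Fintype.card K := by
        rw [hKcard]
        push_cast
        have : (n : ℝ) ≤ s := by exact_mod_cast hns
        have h0 : (0 : ℝ) ≤ ℓ := by positivity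
        nlinarith
      have h2 : (0 : ℝ) ≤ e := by positivity
      have h3 : (0 : ℝ) ≤ Fintype.card K := by positivity
      nlinarith
    -- assembling
    have hK0 : (0 : ℝ) < Fintype.card K := by exact_mod_cast Fintype.card_pos
    have hfin : (Fintype.card K : ℝ) * ((Fintype.card J : ℝ) * Fintype.card A * ((meet (B :: L)).index : ℝ)) ≤
        (Fintype.card K : ℝ) * ∑ j, ∑ a, W (B :: L) a * ‖fam μ τ C j a‖ ^ 2 := by
      have hA : ((Fintype.card K : ℝ) * (1 + e) - e * ℓ * n) * (n * ((Fintype.card J : ℝ) * Fintype.card A * (K.index : ℝ))) ≤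
          (Fintype.card K : ℝ) * ∑ j, ∑ a, W (B :: L) a * ‖fam μ τ C j a‖ ^ 2 := by
        rw [Finset.mul_sum]
        refine le_trans ?_ (Finset.sum_le_sum fun j _ => hsum j)
        rw [← Finset.mul_sum]
        refine mul_le_mul_of_nonneg_left ?_ hcoef
        have h3 : ∑ j, ∑ a, W L a * ∑ κ ∈ N, ‖fam μ τ (Cc κ) j a‖ ^ 2 =
            ∑ κ ∈ N, ∑ j, ∑ a, W L a * ‖fam μ τ (Cc κ) j a‖ ^ 2 := by
          simp_rw [Finset.mul_sum]
          calc ∑ j, ∑ a, ∑ κ ∈ N, W L a * ‖fam μ τ (Cc κ) j a‖ ^ 2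
              = ∑ j, ∑ κ ∈ N, ∑ a, W L a * ‖fam μ τ (Cc κ) j a‖ ^ 2 :=
                Finset.sum_congr rfl fun j _ => Finset.sum_comm
            _ = ∑ κ ∈ N, ∑ j, ∑ a, W L a * ‖fam μ τ (Cc κ) j a‖ ^ 2 := Finset.sum_comm
        rw [h3]
        calc (n : ℝ) * ((Fintype.card J : ℝ) * Fintype.card A * (K.index : ℝ))
            = ∑ _κ ∈ N, (Fintype.card J : ℝ) * Fintype.card A * (K.index : ℝ) := by
              rw [Finset.sum_const, nsmul_eq_mul]
          _ ≤ _ := Finset.sum_le_sum hIH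
      refine le_trans ?_ hA
      -- numerical
      have hJA : (0 : ℝ) ≤ (Fintype.card J : ℝ) * Fintype.card A * (K.index : ℝ) := by positivity
      rw [hind, hKcard]
      push_cast
      have hnum : ((s : ℝ) * ℓ) * (s * (K.index : ℝ)) * ((Fintype.card J : ℝ) * Fintype.card A) ≤
          ((s : ℝ) * ℓ * (1 + e) - e * ℓ * n) * (n * ((Fintype.card J : ℝ) * Fintype.card A * (K.index : ℝ))) := by
        have hf := final_ineq (s := (s : ℝ)) (e := (e : ℝ)) (n := (n : ℝ)) (by exact_mod_cast hn1)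
          (by exact_mod_cast hns) (by exact_mod_cast hes)
        have h0 : (0 : ℝ) ≤ (ℓ : ℝ) * ((Fintype.card J : ℝ) * Fintype.card A * (K.index : ℝ)) := by positivity
        have := mul_le_mul_of_nonneg_right hf h0
        calc _ = (s : ℝ) ^ 2 * ((ℓ : ℝ) * ((Fintype.card J : ℝ) * Fintype.card A * (K.index : ℝ))) := by ring
          _ ≤ _ := this
          _ = _ := by ring
      calc _ = ((s : ℝ) * ℓ) * (s * (K.index : ℝ)) * ((Fintype.card J : ℝ) * Fintype.card A) := by ring
        _ ≤ _ := hnum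
    exact le_of_mul_le_mul_left hfin hK0

end Main

end Cfsg.Agent.Lib.KGV.Lattice
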